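import Cfsg.Agent.Lib.US7.PF

/-! # Polynomial method for general `n` -/

set_option autoImplicit false
set_option linter.unusedSectionVars false

namespace Cfsg.Lib.US7

open Finsupp MvPolynomial Finset Module Cfsg.Lib.Unitary Cfsg.Lib.CKS

section poly

variable {N f r : ℕ} [NeZero N] [NeZero f] {K : Type*} [Field K]

theorem pd_det {A : Type*} (x y z : A → K) (m : A → A → K)
    (hm : ∀ a b, m a b = x a * x b + y a * z b + z a * y b) (u₀ u₁ u₂ u₃ v₀ v₁ v₂ v₃ : A)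
    (h0 : m u₃ v₀ = 0) (h1 : m u₃ v₁ = 0) (h2 : m u₃ v₂ = 0) (h3 : m u₃ v₃ ≠ 0) (h4 : m u₀ v₂ = 0) :
    m u₀ v₀ * (m u₁ v₁ * m u₂ v₂ - m u₁ v₂ * m u₂ v₁) =
      m u₀ v₁ * (m u₁ v₀ * m u₂ v₂ - m u₁ v₂ * m u₂ v₀) := by
  have := pd_minor (x ∘ ![u₀, u₁, u₂, u₃]) (y ∘ ![u₀, u₁, u₂, u₃]) (z ∘ ![u₀, u₁, u₂, u₃])
    (x ∘ ![v₀, v₁, v₂, v₃]) (y ∘ ![v₀, v₁, v₂, v₃]) (z ∘ ![v₀, v₁, v₂, v₃])
    (Matrix.of fun i j => m (![u₀, u₁, u₂, u₃] i) (![v₀, v₁, v₂, v₃] j)) fun i j => hm _ _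
  simp [Matrix.det_succ_row_zero, Fin.sum_univ_succ, Fin.succAbove, h0, h1, h2, h4] at this
  exact mul_left_cancel₀ h3 (by linear_combination this)

theorem rank3G {A : Type*} [AddCommGroup A] [DecidableEq A] {δ : A} (hδ : 7 ≤ addOrderOf δ)
    (η x y z : A → K)
    (h : ∀ a b, (if a = b then η (a + δ) else 0) + (if a = b + δ then η b else 0) +
      (if b = a + δ then η a else 0) = x a * x b + y a * z b + z a * y b) {a b : A}
    (ha : η a ≠ 0) (hb : η b ≠ 0) : a = b := by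
  have d0 : ∀ (s : A) (i j : ℤ), i - j < 7 → j - i < 7 → (s + i • δ = s + j • δ ↔ i = j) :=
    fun s i j h1 h2 => ⟨fun e => by
      have := Int.eq_zero_of_abs_lt_dvd (addOrderOf_dvd_iff_zsmul_eq_zero.2
        (show (i - j) • δ = 0 by rw [sub_smul, add_left_cancel e, sub_self])) (by rw [abs_lt]; omega)
      omega, fun e => e ▸ rfl⟩
  have sc : ∀ (s : A) (i : ℤ), s + i • δ + δ = s + (i + 1) • δ := fun s i => by
    rw [add_smul, one_smul, add_assoc]
  obtain ⟨m, hm⟩ : ∃ m : A → A → K, ∀ a b, m a b = x a * x b + y a * z b + z a * y b := ⟨_, fun _ _ => rfl⟩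
  have mz : ∀ (s t : A) (i j : ℤ), (∀ k : ℤ, -3 ≤ k → k ≤ 2 → t ≠ s + k • δ) → -2 ≤ i - j → i - j ≤ 1 →
      m (s + i • δ) (t + j • δ) = 0 := fun s t i j hk h1 h2 => by
    have : ∀ i j : ℤ, -3 ≤ i - j → i - j ≤ 2 → s + i • δ ≠ t + j • δ := fun i j h1 h2 e =>
      hk _ h1 h2 (by rw [sub_smul, ← add_sub_assoc, e, add_sub_cancel_right])
    rw [hm, ← h, sc, sc, if_neg (this _ _ (by omega) (by omega)), if_neg (this _ _ (by omega) (by omega)),
      if_neg (this _ _ (by omega) (by omega)).symm, add_zero, add_zero]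
  have ms : ∀ (s : A) (i j : ℤ), i - j < 6 → j - i < 6 → m (s + i • δ) (s + j • δ) =
      (if i = j then η (s + (i + 1) • δ) else 0) + (if i = j + 1 then η (s + j • δ) else 0) +
      (if j = i + 1 then η (s + i • δ) else 0) := fun s i j h1 h2 => by
    rw [hm, ← h, sc, sc]
    simp only [d0 s i j (by omega) (by omega), d0 s i (j + 1) (by omega) (by omega),
      d0 s j (i + 1) (by omega) (by omega)]
  have kN : ∀ s t : A, η s ≠ 0 → (∀ k : ℤ, -3 ≤ k → k ≤ 2 → t ≠ s + k • δ) → η t = 0 := fun s t hs hk => by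
    have := pd_det x y z m hm (s + (0 : ℤ) • δ) (t + (-1 : ℤ) • δ) (t + (0 : ℤ) • δ) (s + (-1 : ℤ) • δ)
      (s + (1 : ℤ) • δ) (t + (-1 : ℤ) • δ) (t + (1 : ℤ) • δ) (s + (-1 : ℤ) • δ)
      (by rw [ms _ _ _ (by omega) (by omega)]; simp) (mz _ _ _ _ hk (by omega) (by omega))
      (mz _ _ _ _ hk (by omega) (by omega)) (by rw [ms _ _ _ (by omega) (by omega)]; simpa using hs)
      (mz _ _ _ _ hk (by omega) (by omega))
    rw [mz s t 0 (-1) hk (by omega) (by omega), ms s 0 1 (by omega) (by omega),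
      ms t (-1) (-1) (by omega) (by omega), ms t 0 1 (by omega) (by omega),
      ms t (-1) 1 (by omega) (by omega)] at this
    simpa [hs] using this
  have k3 : ∀ s : A, η s ≠ 0 → η (s + (3 : ℤ) • δ) = 0 := fun s hs =>
    kN s _ hs fun k h1 h2 e => by have := (d0 s 3 k (by omega) (by omega)).1 e; omega
  have k2 : ∀ s : A, η s ≠ 0 → η (s + (2 : ℤ) • δ) = 0 := fun s hs => by
    have := pd_det x y z m hm (s + (0 : ℤ) • δ) (s + (2 : ℤ) • δ) (s + (3 : ℤ) • δ) (s + (-1 : ℤ) • δ)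
      (s + (1 : ℤ) • δ) (s + (2 : ℤ) • δ) (s + (3 : ℤ) • δ) (s + (-1 : ℤ) • δ)
      (by rw [ms _ _ _ (by omega) (by omega)]; simp) (by rw [ms _ _ _ (by omega) (by omega)]; simp)
      (by rw [ms _ _ _ (by omega) (by omega)]; simp) (by rw [ms _ _ _ (by omega) (by omega)]; simpa using hs)
      (by rw [ms _ _ _ (by omega) (by omega)]; simp)
    rw [ms s 0 1 (by omega) (by omega), ms s 2 2 (by omega) (by omega), ms s 2 3 (by omega) (by omega),
      ms s 3 2 (by omega) (by omega), ms s 0 2 (by omega) (by omega)] at this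
    simpa [hs, k3 s hs] using this
  have k1 : ∀ s : A, η s ≠ 0 → η (s + (1 : ℤ) • δ) = 0 := fun s hs => by
    by_contra h1
    have h6 : η (s + (-1 : ℤ) • δ) = 0 := by
      by_contra h6
      have := k2 _ h6
      rw [add_assoc, ← add_smul] at this
      exact h1 this
    have := pd_det x y z m hm (s + (0 : ℤ) • δ) (s + (1 : ℤ) • δ) (s + (2 : ℤ) • δ) (s + (-1 : ℤ) • δ)
      (s + (0 : ℤ) • δ) (s + (1 : ℤ) • δ) (s + (2 : ℤ) • δ) (s + (-1 : ℤ) • δ)
      (by rw [ms _ _ _ (by omega) (by omega), h6]; simp) (by rw [ms _ _ _ (by omega) (by omega)]; simp)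
      (by rw [ms _ _ _ (by omega) (by omega)]; simp) (by rw [ms _ _ _ (by omega) (by omega)]; simpa using hs)
      (by rw [ms _ _ _ (by omega) (by omega)]; simp)
    rw [ms s 0 0 (by omega) (by omega), ms s 2 2 (by omega) (by omega), ms s 1 2 (by omega) (by omega),
      ms s 2 1 (by omega) (by omega), ms s 2 0 (by omega) (by omega)] at this
    exact h1 (by simpa [k3 s hs] using this)
  by_contra ne
  have : ∃ k : ℤ, -3 ≤ k ∧ k ≤ 2 ∧ b = a + k • δ := by
    by_contra! hk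
    exact hb (kN a b ha hk)
  obtain ⟨k, h1, h2, rfl⟩ := this
  have bk : ∀ j : ℤ, k + j = 0 → η (a + k • δ + j • δ) ≠ 0 := fun j e => by
    rwa [add_assoc, ← add_smul, e, zero_smul, add_zero]
  interval_cases k
  · exact bk 3 rfl (k3 _ hb)
  · exact bk 2 rfl (k2 _ hb)
  · exact bk 1 rfl (k1 _ hb)
  · exact ne (by simp)
  · exact hb (k1 _ ha)
  · exact hb (k2 _ ha)

namespace Iso

variable {cl : ZMod N →+* ZMod f} {H : ZMod N} {α : ZMod N → K} [CharP K 2] [Fintype K]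
  (hK : Fintype.card K = 2 ^ N)
include hK

theorem mono_of_cubicN (h : Iso r cl H α) (hr : 7 ≤ r) (h1 : cl H = 1) (s : ZMod f)
    (hw : ∀ i j m, cl i = s → cl j = s → cl m = s → i ≠ j → i ≠ m → j ≠ m →
      ww H α (i - 1) j m + ww H α (j - 1) i m + ww H α (m - 1) i j = 0)
    {κ ι : ZMod N} (hκ : α κ ≠ 0) (hι : α ι ≠ 0) : κ = ι := by
  obtain ⟨d0, dcl⟩ := h.pd_delta h1
  obtain ⟨i, hi⟩ := h.pd_exists s
  obtain ⟨ho, -⟩ := h.ker d0 dcl
  have key : i - κ = i - ι := by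
    refine rank3G (ho ▸ hr) (fun c => bb 2 α c i) (fun a => bb 2 α (a + H) (i - (1 + H) + H))
      (fun a => bb 2 α (a + H) (i + H)) (fun a => bb 2 α (a + H) (i + (1 + H) + H))
      (fun a b => ?_) (by simp [bb, hκ]) (by simp [bb, hι])
    have P : ∀ (u v : ZMod N) (t : K), ∑ j, ∑ m, t * bb 2 α u j * bb 2 α v m *
        (bb 2 α (a + H) (j + H) * bb 2 α (b + H) (m + H)) =
        t * (if u = a then 1 else 0) * (if v = b then 1 else 0) := by
      intro u v t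
      rw [← h.orth', ← h.orth', mul_assoc, sum_mul_sum, Finset.mul_sum]
      refine sum_congr rfl fun j _ => ?_
      rw [Finset.mul_sum]
      exact sum_congr rfl fun m _ => by ring
    have E : ∑ j, ∑ m, (∑ c, (bb 2 α (c + (1 + H)) i * bb 2 α c j * bb 2 α c m +
        bb 2 α c i * bb 2 α (c + (1 + H)) j * bb 2 α c m +
        bb 2 α c i * bb 2 α c j * bb 2 α (c + (1 + H)) m)) *
        (bb 2 α (a + H) (j + H) * bb 2 α (b + H) (m + H)) =
        ∑ c, (bb 2 α (c + (1 + H)) i * (if c = a then 1 else 0) * (if c = b then 1 else 0) +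
        bb 2 α c i * (if c + (1 + H) = a then 1 else 0) * (if c = b then 1 else 0) +
        bb 2 α c i * (if c = a then 1 else 0) * (if c + (1 + H) = b then 1 else 0)) := by
      simp only [← P, Finset.sum_mul, add_mul, ← sum_add_distrib]
      rw [sum_congr rfl fun j _ => Finset.sum_comm, Finset.sum_comm]
    simp only [theta hK h h1 s hw hi] at E
    have e1 : ∀ j m : ZMod N, (i = j + (1 + H) ∧ j = m) ↔ (j = i - (1 + H) ∧ m = i - (1 + H)) :=
      fun j m => ⟨fun ⟨a, b⟩ => ⟨by rw [a]; ring, by rw [a, b]; ring⟩,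
        fun ⟨a, b⟩ => ⟨by rw [a]; ring, by rw [a, b]⟩⟩
    have e2 : ∀ j m : ZMod N, (j = i + (1 + H) ∧ i = m) ↔ (j = i + (1 + H) ∧ m = i) :=
      fun j m => by rw [eq_comm (a := i)]
    have e3 : ∀ j m : ZMod N, (m = i + (1 + H) ∧ i = j) ↔ (j = i ∧ m = i + (1 + H)) :=
      fun j m => by rw [eq_comm (a := i), and_comm]
    simp only [e1, e2, e3] at E
    simp only [add_mul, sum_add_distrib, ite_and, ite_mul, one_mul, zero_mul,
      sum_ite_irrel, Finset.sum_ite_eq', mem_univ, if_true, sum_const_zero, mul_ite, mul_one,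
      mul_zero] at E
    have s3 : ∑ x, (if x + (1 + H) = b then if x = a then bb 2 α x i else 0 else 0) =
        if b = a + (1 + H) then bb 2 α a i else 0 := by
      rw [Finset.sum_eq_single a (fun x _ hx => by simp [hx]) (by simp)]
      simp only [if_true, eq_comm (a := b)]
    have s1 : (if b = a then bb 2 α (b + (1 + H)) i else 0) =
        if a = b then bb 2 α (a + (1 + H)) i else 0 := by
      by_cases e : a = b
      · simp [e]
      · simp [e, Ne.symm e]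
    rw [s1, s3] at E
    simp only [eq_comm (b := a)] at E
    linear_combination -E
  exact sub_right_inj.1 key

theorem top_casesN (h : Iso r cl H α) (hr : 7 ≤ r) {P : MvPolynomial (ZMod N) K} (I : Inv H α P)
    {κ ι : ZMod N} (hκ : α κ ≠ 0) (hι : α ι ≠ 0) (ne : κ ≠ ι) {m₀ : ZMod N →₀ ℕ}
    (h0 : coeff m₀ P ≠ 0) (top : ∀ m, coeff m P ≠ 0 → degree m ≤ degree m₀) :
    (∀ s, md cl m₀ s ≤ 1) ∨ ∀ i, m₀ i = 1 := by
  rw [or_iff_not_imp_left]
  intro h1
  push Not at h1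
  obtain ⟨s, hs⟩ := h1
  have st : ∀ s, 2 ≤ md cl m₀ s → r ≤ md cl m₀ (s + 1) := fun s h2 => not_lt.1 fun h1 => ne <| by
    have c := @carry3 _ _ _ _ _ _ _ _ _ _ _ _ hK h _ I _ top _ _ hκ hι ne _ h0 rfl s h2 h1
    by_cases e : cl H = 1
    · simp only [e, if_true, ← add_assoc] at c
      exact mono_of_cubicN hK h hr e (s + 1) (fun i j m => @c i j m) hκ hι
    · have n : ∀ {l j : ZMod N}, cl l = s → cl j = s + cl H → l + 1 ≠ j := fun hl hj e' =>
        e (by rw [← e', map_add, map_one, hl] at hj; exact (add_left_cancel hj).symm)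
      refine mono_of_ww h s (fun l j m hl hj hm jm => ?_) hκ hι
      simpa [e] using c (by rw [map_add, map_one, hl]) hj hm (n hl hj) (n hl hm) jm
  have al : ∀ k : ℕ, r ≤ md cl m₀ (s + 1 + k) := fun k => by
    induction k with
    | zero => simpa using st s hs
    | succ k ih => rw [Nat.cast_succ, ← add_assoc]; exact st _ (by omega)
  intro i
  by_contra n
  have := al (cl i - (s + 1)).val
  rw [ZMod.natCast_zmod_val, add_sub_cancel] at this
  exact this.not_gt ((h.pe_lt (I.per m₀ h0).1 _).2 i rfl n)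

end Iso

end poly

variable {F K : Type*} [Field F] [Fintype F] [Field K] [Fintype K] [Algebra F K] {σ : F →+* F}
  {q n τ : ℕ} {s : K →+* K} {B : K →ₛₗ[σ] K →ₗ[F] F}

/-- `Md.tr_even` for general `n` and `d = 1` -/
theorem Md.tr_evenN (M : Md q n 1 τ s B) (h2 : (2 : F) = 0) {G : Subgroup (K ≃ₗ[F] K)} (O : Ov q τ B G) :
    Tr B G := by
  classical
  obtain ⟨p, e, hp, hc, he, hq⟩ := exists_prime_pow_of_card M.cardF
  obtain rfl : p = 2 := (Nat.prime_dvd_prime_iff_eq hp Nat.prime_two).1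
    ((CharP.cast_eq_zero_iff F p 2).1 (by exact_mod_cast h2))
  haveI : NeZero (2 * e) := ⟨by omega⟩
  have n7 := M.seven
  haveI : NeZero (2 * e * n) := ⟨Nat.mul_ne_zero (by omega) (by omega)⟩
  haveI : Fact (Nat.Prime 2) := ⟨Nat.prime_two⟩
  obtain ⟨-, cK, hK⟩ := M.pf_char hq
  have hT : τ * (q + 1) = 2 ^ (e * n) + 1 := by rw [pow_mul, ← hq, ← M.mul, one_mul, mul_comm]
  obtain ⟨g, hg, hn⟩ := SetLike.not_le_iff_exists.1 O.ne
  obtain ⟨α, I, hα, h1⟩ := M.exists_iso hq (O.le hg)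
  obtain ⟨κ, ι, hκ, hι, ne⟩ : ∃ κ ι, α κ ≠ 0 ∧ α ι ≠ 0 ∧ κ ≠ ι := by
    by_contra! h
    exact hn (h1 h)
  intro x y hx hy hB
  obtain ⟨P, p1, p2⟩ := exists_reduced le_rfl hK fun z : K => if ∃ k ∈ G, k x = z then 1 else 0
  have g0 : ∀ (k : K ≃ₗ[F] K) (v : K), v ≠ 0 → k v ≠ 0 := fun k v hv => by simpa using hv
  have inv : ∀ k ∈ G, ∀ v, v ≠ 0 → ev 2 (2 * e * n) (k v) P = ev 2 (2 * e * n) v P := fun k hk v hv => by
    rw [p2 _ hv, p2 _ (g0 k v hv)]
    exact if_congr ⟨fun ⟨l, hl, e⟩ => ⟨k⁻¹ * l, mul_mem (inv_mem hk) hl, k.injective (by simpa using e)⟩,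
      fun ⟨l, hl, e⟩ => ⟨k * l, mul_mem hk hl, congrArg k e⟩⟩ rfl rfl
  obtain ⟨φ, hφ⟩ := Iso.fun_of_norm' hK I (fun v hv => hα v ▸ g0 g v hv) hκ hι ne
    (fun _ J _ h0 top => Iso.top_casesN hK I n7 J hκ hι ne h0 top) (P := P)
    ⟨per_of_inv hK (mul_assoc 2 e n) p1 fun z v hz hv => inv (mu F K (Units.mk0 z fun h => by simp [h] at hz))
      (O.sc (mu_mem_Sc.2 (Units.ext (by rw [hT]; exact hz)))) v hv, fun m hm => (p1 m hm).2,
      fun v hv => by rw [map_sub, ev_bind hK α hv, hα, inv g hg v hv, sub_self]⟩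
  have := (hφ y hy).trans (by rw [M.ev_Qs_zero hq hy, ← hB, ← M.ev_Qs_zero hq hx, ← hφ x hx])
  rw [p2 _ hx, p2 _ hy, if_pos (c := ∃ k ∈ G, k x = x) ⟨1, one_mem G, rfl⟩] at this
  exact by_contra fun n => zero_ne_one ((if_neg n).symm.trans this)

end Cfsg.Lib.US7
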